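import Mathlib

set_option autoImplicit false

namespace Cfsg.Agent.Lib.Helper73

theorem card_dvd_of_free {A X : Type*} [Group A] [MulAction A X]
    (h : ∀ b : X, MulAction.stabilizer A b = ⊥) : Nat.card A ∣ Nat.card X := by
  rw [Nat.card_congr (MulAction.selfEquivOrbitsQuotientProd h), Nat.card_prod]
  exact dvd_mul_left _ _

/-- A group of automorphisms permuting a set of generating tuples has order dividing the size of
that set. -/
theorem card_aut_dvd_card_tuples {P ι : Type*} [Group P] (A : Subgroup (MulAut P))
    (X : Set (ι → P)) (hinv : ∀ α ∈ A, ∀ f ∈ X, (fun i => α (f i)) ∈ X)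
    (hgen : ∀ f ∈ X, Subgroup.closure (Set.range f) = ⊤) : Nat.card A ∣ Nat.card X := by
  let S : SubMulAction A (ι → P) :=
    { carrier := X
      smul_mem' := fun α f hf => hinv α.1 α.2 f hf }
  have key : Nat.card A ∣ Nat.card S := by
    apply card_dvd_of_free
    rintro ⟨f, hf⟩
    rw [eq_bot_iff]
    intro α hα
    rw [MulAction.mem_stabilizer_iff] at hα
    have h1 : ∀ i, (α : MulAut P) (f i) = f i := by
      intro i
      have := congrArg (fun g : S => (g : ι → P) i) hα
      exact this
    rw [Subgroup.mem_bot]
    apply Subtype.ext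
    apply MulEquiv.toMonoidHom_injective
    apply MonoidHom.eq_of_eqOn_dense (hgen f hf)
    rintro _ ⟨i, rfl⟩
    exact h1 i
  exact key

end Cfsg.Agent.Lib.Helper73
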