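import Mathlib

set_option autoImplicit false

namespace Cfsg.Agent.Lib.Helper73

theorem span_zmod_eq_top_iff {V : Type*} [AddCommGroup V] (p : ℕ) [Module (ZMod p) V] (S : Set V) :
    Submodule.span (ZMod p) S = ⊤ ↔ AddSubgroup.closure S = ⊤ := by
  have h1 : Submodule.span (ZMod p) S = AddSubgroup.toZModSubmodule p (AddSubgroup.closure S) := by
    apply le_antisymm
    · rw [Submodule.span_le]
      exact AddSubgroup.subset_closure
    · intro x hx
      have h2 : AddSubgroup.closure S ≤ (Submodule.span (ZMod p) S).toAddSubgroup := by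
        rw [AddSubgroup.closure_le]
        exact Submodule.subset_span
      exact h2 hx
  rw [h1]
  constructor
  · intro h
    have := congrArg (AddSubgroup.toZModSubmodule p).symm h
    simpa using this
  · intro h
    rw [h]
    simp

theorem card_gen_tuples_add {V : Type*} [AddCommGroup V] [Finite V] (p r : ℕ) [hp : Fact p.Prime]
    [Module (ZMod p) V] (hcard : Nat.card V = p ^ r) :
    Nat.card {s : Fin r → V // AddSubgroup.closure (Set.range s) = ⊤} =
      ∏ i ∈ Finset.range r, (p ^ r - p ^ i) := by
  classical
  have hfin : Module.finrank (ZMod p) V = r := by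
    have h1 := Module.natCard_eq_pow_finrank (K := ZMod p) (V := V)
    rw [Nat.card_zmod, hcard] at h1
    exact (Nat.pow_right_injective hp.out.two_le h1).symm
  have hli := card_linearIndependent (K := ZMod p) (V := V) (k := r) (by rw [hfin])
  rw [hfin, ZMod.card, Fin.prod_univ_eq_prod_range (fun i => p ^ r - p ^ i) r] at hli
  rw [← hli]
  apply Nat.card_congr
  refine Equiv.subtypeEquivRight ?_
  intro f
  rw [← span_zmod_eq_top_iff p]
  constructor
  · intro h
    exact linearIndependent_of_top_le_span_of_card_eq_finrank (le_of_eq h.symm) (by simp [hfin])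
  · intro h
    exact h.span_eq_top_of_card_eq_finrank' (by simp [hfin])

theorem card_gen_tuples_comm {Q : Type*} [CommGroup Q] [Finite Q] (p r : ℕ) [hp : Fact p.Prime]
    (hexp : ∀ a : Q, a ^ p = 1) (hcard : Nat.card Q = p ^ r) :
    Nat.card {f : Fin r → Q // Subgroup.closure (Set.range f) = ⊤} =
      ∏ i ∈ Finset.range r, (p ^ r - p ^ i) := by
  let _ : Module (ZMod p) (Additive Q) := AddCommGroup.zmodModule (n := p) (fun x => by
    have := hexp x.toMul
    exact congrArg Additive.ofMul this)
  rw [← card_gen_tuples_add (V := Additive Q) p r hcard]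
  apply Nat.card_congr
  refine Equiv.subtypeEquiv (Equiv.arrowCongr (Equiv.refl _) Additive.ofMul) ?_
  intro f
  have h1 : AddSubgroup.closure (Set.range (((Equiv.refl (Fin r)).arrowCongr Additive.ofMul) f)) =
      Subgroup.toAddSubgroup (Subgroup.closure (Set.range f)) := by
    rw [Subgroup.toAddSubgroup_closure]
    congr 1
  rw [h1]
  constructor
  · intro h
    rw [h]; rfl
  · intro h
    have := congrArg Subgroup.toAddSubgroup.symm h
    simpa using this

/-- number of generating `r`-tuples of an elementary abelian group of order `p ^ r` -/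
theorem card_gen_tuples {Q : Type*} [Group Q] [Finite Q] (p r : ℕ) [hp : Fact p.Prime]
    (hcomm : ∀ a b : Q, a * b = b * a) (hexp : ∀ a : Q, a ^ p = 1) (hcard : Nat.card Q = p ^ r) :
    Nat.card {f : Fin r → Q // Subgroup.closure (Set.range f) = ⊤} =
      ∏ i ∈ Finset.range r, (p ^ r - p ^ i) :=
  @card_gen_tuples_comm Q { (inferInstance : Group Q) with mul_comm := hcomm } _ p r hp hexp hcard

end Cfsg.Agent.Lib.Helper73
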